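import Cfsg.Agent.Lib.TC.Data.ONS0.Main
import Cfsg.Agent.Lib.TC.Data.ONS1.Main
import Cfsg.Agent.Lib.TC.Data.ONS2.Main
import Cfsg.Agent.Lib.TC.Data.ONS3.Main
import Cfsg.Agent.Lib.TC.Data.ONS4.Main
import Cfsg.Agent.Lib.TC.Data.ONS5.Main
import Cfsg.Agent.Lib.TC.Data.ONColl
import Cfsg.Agent.Lib.TC.Data.ONLev
import Cfsg.Agent.Lib.TC.Data.ONOrd.Main
import Cfsg.Agent.Lib.TC.Data.ONa.Main

set_option autoImplicit false

namespace Cfsg.Agent.Lib.TC.Data.ONMain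

open Cfsg.Agent.Lib.TC

noncomputable abbrev S : Sys Cfsg.Spor.ON.Gen := G.ON.sys

noncomputable abbrev C := Cfsg.Agent.Lib.TC.Data.ONa.checked

theorem b0 : 0 < Nat.card (S.letL [2]) ∧ Nat.card (S.letL [2]) ≤ 1 * 2 :=
  card_le_step (S.letL_mono (by simp)) Cfsg.Agent.Lib.TC.Data.ONS5.idx (by rw [S.letL_nil]; exact card_bot_bound)

theorem b1 : 0 < Nat.card (S.letL [1,2]) ∧ Nat.card (S.letL [1,2]) ≤ 1 * 2 * 3 :=
  card_le_step (S.letL_mono (by decide +kernel)) Cfsg.Agent.Lib.TC.Data.ONS4.idx b0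

theorem b2 : 0 < Nat.card (S.letL [0,1,2]) ∧ Nat.card (S.letL [0,1,2]) ≤ 1 * 2 * 3 * 4 :=
  card_le_step (S.letL_mono (by decide +kernel)) Cfsg.Agent.Lib.TC.Data.ONS3.idx b1

theorem b3 : 0 < Nat.card (S.letL [0,1,2,5]) ∧ Nat.card (S.letL [0,1,2,5]) ≤ 1 * 2 * 3 * 4 * 2 :=
  card_le_step (S.letL_mono (by decide +kernel)) Cfsg.Agent.Lib.TC.Data.ONS2.idx b2

theorem b4 : 0 < Nat.card (S.letL [0,1,2,3,5]) ∧ Nat.card (S.letL [0,1,2,3,5]) ≤ 1 * 2 * 3 * 4 * 2 * 14 :=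
  card_le_step (S.letL_mono (by decide +kernel)) Cfsg.Agent.Lib.TC.Data.ONS1.idx b3

theorem b5 : 0 < Nat.card (S.letL [0,1,2,3,4,5]) ∧ Nat.card (S.letL [0,1,2,3,4,5]) ≤ 1 * 2 * 3 * 4 * 2 * 14 * 5586 :=
  card_le_step (S.letL_mono (by decide +kernel)) Cfsg.Agent.Lib.TC.Data.ONS0.idx b4

open Cfsg.Spor.ON in
theorem hsubL : Sys.subOf S ({a, b, c, d, e, f} : Set (FreeGroup Cfsg.Spor.ON.Gen)) = S.letL [0,1,2,3,4,5] :=
  S.subOf_eq_letL Cfsg.Agent.Lib.TC.Data.ONa.checked.A _ (by decide +kernel) (by decide +kernel)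

theorem top : 0 < Nat.card (PresentedGroup S.rels) ∧ Nat.card (PresentedGroup S.rels) ≤ 1 * 2 * 3 * 4 * 2 * 14 * 5586 * 122760 :=
  card_top_le (by rw [← hsubL]; exact Cfsg.Agent.Lib.TC.Data.ONa.checked.upper) b5

theorem faith : Function.Injective C.tableData.φ ∧ Nat.card (PresentedGroup S.rels) = 3753792 * C.n :=
  C.faithful top.1 (top.2.trans (by decide +kernel)) Cfsg.Agent.Lib.TC.Data.ONLev.SW Cfsg.Agent.Lib.TC.Data.ONLev.hlet
    (by decide +kernel) Cfsg.Agent.Lib.TC.Data.ONLev.L0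

def xw : List ℕ := Cfsg.Agent.Lib.TC.Data.ONColl.xw

theorem hx : (evalWord S.v xw) ^ 11 ^ 1 = 1 := by
  rw [pow_one]
  refine C.tableData.pow_eq_one_U faith.1 (by decide +kernel) 11 Cfsg.Agent.Lib.TC.Data.ONOrd.aU ?_ ?_
  · intro i hi
    exact (Sys.ptPow_spec (Cfsg.Agent.Lib.TC.Data.ONOrd.doneU i hi)).1
  · intro i hi
    exact (Sys.ptPow_spec (Cfsg.Agent.Lib.TC.Data.ONOrd.doneU i hi)).2

theorem main : IsSimpleGroup (PresentedGroup S.rels) ∧ Nat.card (PresentedGroup S.rels) = 460815505920 := by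
  have hcard : Nat.card (PresentedGroup S.rels) = 460815505920 := faith.2.trans (by decide +kernel)
  have : Finite (PresentedGroup S.rels) := Nat.finite_of_card_ne_zero (by omega)
  refine ⟨?_, hcard⟩
  refine C.isSimple faith.1 hcard (by decide +kernel) (by decide +kernel) (by decide +kernel) (by decide +kernel)
    (p := 11) (a := 1) (k := 1) (by norm_num) (by decide +kernel) (by decide +kernel) _ hx ?_
  intro N hN hxN
  have h := Cfsg.Agent.Lib.TC.Data.ONColl.coll N hxN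
  exact Subgroup.index_eq_one.1 (by omega)

end Cfsg.Agent.Lib.TC.Data.ONMain
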