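import Cfsg.Agent.Lib.TC.Data.SuzS1.Main
import Cfsg.Agent.Lib.TC.Data.SuzS2.Main
import Cfsg.Agent.Lib.TC.Data.SuzS3.Main
import Cfsg.Agent.Lib.TC.Data.SuzColl
import Cfsg.Agent.Lib.TC.Data.SuzLev

set_option autoImplicit false

namespace Cfsg.Agent.Lib.TC.Data.SuzMain

open Cfsg.Agent.Lib.TC

noncomputable abbrev S : Sys Cfsg.Spor.Suz.Gen := G.Suz.sys

noncomputable abbrev C := Cfsg.Agent.Lib.TC.Data.Suz1782.checked

theorem hsubL : Sys.subOf S ({Cfsg.Spor.Suz.a, Cfsg.Spor.Suz.b, Cfsg.Spor.Suz.c, Cfsg.Spor.Suz.d, Cfsg.Spor.Suz.e, Cfsg.Spor.Suz.f} : Set (FreeGroup Cfsg.Spor.Suz.Gen)) = S.letL [0,1,2,3,4,5] :=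
  S.subOf_eq_letL C.A _ (by decide +kernel) (by decide +kernel)

theorem b3 : 0 < Nat.card (S.letL [0,1,2,3]) ∧ Nat.card (S.letL [0,1,2,3]) ≤ 1 * 2160 :=
  card_le_step (S.letL_mono (by simp)) Cfsg.Agent.Lib.TC.Data.SuzS3.idx (by rw [S.letL_nil]; exact card_bot_bound)

theorem b2 : 0 < Nat.card (S.letL [0,1,2,3,4]) ∧ Nat.card (S.letL [0,1,2,3,4]) ≤ 1 * 2160 * 280 :=
  card_le_step (S.letL_mono (by simp)) Cfsg.Agent.Lib.TC.Data.SuzS2.idx b3

theorem b1 : 0 < Nat.card (S.letL [0,1,2,3,4,5]) ∧ Nat.card (S.letL [0,1,2,3,4,5]) ≤ 1 * 2160 * 280 * 416 :=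
  card_le_step (S.letL_mono (by simp)) Cfsg.Agent.Lib.TC.Data.SuzS1.idx b2

theorem top : 0 < Nat.card (PresentedGroup S.rels) ∧ Nat.card (PresentedGroup S.rels) ≤ 1 * 2160 * 280 * 416 * 1782 :=
  card_top_le (by rw [← hsubL]; exact C.upper) b1

theorem faith : Function.Injective C.tableData.φ ∧ Nat.card (PresentedGroup S.rels) = 251596800 * C.n :=
  C.faithful top.1 (top.2.trans (by decide +kernel)) Cfsg.Agent.Lib.TC.Data.SuzLev.SW Cfsg.Agent.Lib.TC.Data.SuzLev.hlet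
    (by decide +kernel) Cfsg.Agent.Lib.TC.Data.SuzLev.L0

theorem hord : allFrom (fun i => Nat.beq (iterN (walk C.T Cfsg.Agent.Lib.TC.Data.SuzColl.xw) 11 i) i) 0 1782 = true := by
  decide +kernel

theorem hx : (evalWord S.v Cfsg.Agent.Lib.TC.Data.SuzColl.xw) ^ 11 ^ 1 = 1 := by
  rw [pow_one]
  refine C.tableData.pow_eq_one faith.1 (by decide +kernel) 11 ?_
  intro i hi
  have h := allFrom_spec _ 0 1782 hord i hi
  rw [Nat.zero_add] at h
  rw [← iterN_eq]
  exact Nat.eq_of_beq_eq_true h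

theorem main : IsSimpleGroup (PresentedGroup S.rels) ∧ Nat.card (PresentedGroup S.rels) = 448345497600 := by
  have hcard : Nat.card (PresentedGroup S.rels) = 448345497600 := faith.2.trans (by decide +kernel)
  have : Finite (PresentedGroup S.rels) := Nat.finite_of_card_ne_zero (by omega)
  refine ⟨?_, hcard⟩
  refine C.isSimple faith.1 hcard (by decide +kernel) (by decide +kernel) (by decide +kernel) (by decide +kernel)
    (p := 11) (a := 1) (k := 1) (by norm_num) (by decide +kernel) (by decide +kernel) _ hx ?_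
  intro N hN hxN
  have h := Cfsg.Agent.Lib.TC.Data.SuzColl.coll N hxN
  exact Subgroup.index_eq_one.1 (by omega)

end Cfsg.Agent.Lib.TC.Data.SuzMain
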