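/-
The subgroup of ON generated by the letters [0,1,2,3,4,5] is presented by the relators on these letters.
-/
import Cfsg.Agent.Lib.TC.Restrict
import Cfsg.Agent.Lib.TC.Data.ONS5.Main
import Cfsg.Agent.Lib.TC.Data.ONS4.Main
import Cfsg.Agent.Lib.TC.Data.ONS3.Main
import Cfsg.Agent.Lib.TC.Data.ONS2.Main
import Cfsg.Agent.Lib.TC.Data.ONS1.Main
import Cfsg.Agent.Lib.TC.Data.ONS0.Main

set_option autoImplicit false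

namespace Cfsg.Agent.Lib.TC.Data.ONAbs

open Cfsg.Agent.Lib.TC

noncomputable abbrev S : Sys Cfsg.Spor.ON.Gen := G.ON.sys

abbrev A : List ℕ := [0,1,2,3,4,5]

theorem hA : ∀ g ∈ A, S.inv g ∈ A := by decide +kernel

theorem hlt : ∀ g ∈ A, g < S.ng := by decide +kernel

noncomputable abbrev S' : Sys Cfsg.Spor.ON.Gen := S.restrict A

theorem map_getD_mem {A' : List ℕ} (hsub : ∀ g ∈ A', g ∈ A) {w : List ℕ} (h : ∀ g ∈ w, g < A'.length) :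
    ∀ x ∈ w.map (fun j => A'.getD j 0), x ∈ A := by
  intro x hx
  obtain ⟨j, hj, rfl⟩ := List.mem_map.1 hx
  apply hsub
  rw [List.getD_eq_getElem _ _ (h j hj)]
  exact List.getElem_mem _

theorem idx0 : (S'.letL []).relIndex (S'.letL [2]) ≠ 0 ∧ (S'.letL []).relIndex (S'.letL [2]) ≤ 2 :=
  S'.relIndex_letL [2] [] Cfsg.Agent.Lib.TC.Data.ONS5.invp Cfsg.Agent.Lib.TC.Data.ONS5.hsig Cfsg.Agent.Lib.TC.Data.ONS5.cert Cfsg.Agent.Lib.TC.Data.ONS5.words rfl rfl rfl Cfsg.Agent.Lib.TC.Data.ONS5.hnW Cfsg.Agent.Lib.TC.Data.ONS5.hnrel Cfsg.Agent.Lib.TC.Data.ONS5.hlett Cfsg.Agent.Lib.TC.Data.ONS5.hlet2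
    (fun w hw => (Cfsg.Agent.Lib.TC.Data.ONS5.hrelW w hw).imp id (fun h => S.restrict_rel A hA (map_getD_mem (by decide +kernel) (Cfsg.Agent.Lib.TC.Data.ONS5.hlet2 w (List.mem_of_mem_take hw))) (G.ON.of_mem_relWords h))) Cfsg.Agent.Lib.TC.Data.ONS5.hsubW
    (fun k hk => guard_zero 256 _ k hk) Cfsg.Agent.Lib.TC.Data.ONS5.doneK 2 Cfsg.Agent.Lib.TC.Data.ONS5.aN Cfsg.Agent.Lib.TC.Data.ONS5.tT (by decide) Cfsg.Agent.Lib.TC.Data.ONS5.hnm0 Cfsg.Agent.Lib.TC.Data.ONS5.doneP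

theorem b0 : 0 < Nat.card (S'.letL [2]) ∧ Nat.card (S'.letL [2]) ≤ 1 * 2 :=
  card_le_step (S'.letL_mono (by simp)) idx0 (by rw [S'.letL_nil]; exact card_bot_bound)

theorem idx1 : (S'.letL [2]).relIndex (S'.letL [1,2]) ≠ 0 ∧ (S'.letL [2]).relIndex (S'.letL [1,2]) ≤ 3 :=
  S'.relIndex_letL [1,2] [2] Cfsg.Agent.Lib.TC.Data.ONS4.invp Cfsg.Agent.Lib.TC.Data.ONS4.hsig Cfsg.Agent.Lib.TC.Data.ONS4.cert Cfsg.Agent.Lib.TC.Data.ONS4.words rfl rfl rfl Cfsg.Agent.Lib.TC.Data.ONS4.hnW Cfsg.Agent.Lib.TC.Data.ONS4.hnrel Cfsg.Agent.Lib.TC.Data.ONS4.hlett Cfsg.Agent.Lib.TC.Data.ONS4.hlet2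
    (fun w hw => (Cfsg.Agent.Lib.TC.Data.ONS4.hrelW w hw).imp id (fun h => S.restrict_rel A hA (map_getD_mem (by decide +kernel) (Cfsg.Agent.Lib.TC.Data.ONS4.hlet2 w (List.mem_of_mem_take hw))) (G.ON.of_mem_relWords h))) Cfsg.Agent.Lib.TC.Data.ONS4.hsubW
    (fun k hk => guard_zero 256 _ k hk) Cfsg.Agent.Lib.TC.Data.ONS4.doneK 3 Cfsg.Agent.Lib.TC.Data.ONS4.aN Cfsg.Agent.Lib.TC.Data.ONS4.tT (by decide) Cfsg.Agent.Lib.TC.Data.ONS4.hnm0 Cfsg.Agent.Lib.TC.Data.ONS4.doneP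

theorem b1 : 0 < Nat.card (S'.letL [1,2]) ∧ Nat.card (S'.letL [1,2]) ≤ 1 * 2 * 3 :=
  card_le_step (S'.letL_mono (by decide +kernel)) idx1 b0

theorem idx2 : (S'.letL [1,2]).relIndex (S'.letL [0,1,2]) ≠ 0 ∧ (S'.letL [1,2]).relIndex (S'.letL [0,1,2]) ≤ 4 :=
  S'.relIndex_letL [0,1,2] [1,2] Cfsg.Agent.Lib.TC.Data.ONS3.invp Cfsg.Agent.Lib.TC.Data.ONS3.hsig Cfsg.Agent.Lib.TC.Data.ONS3.cert Cfsg.Agent.Lib.TC.Data.ONS3.words rfl rfl rfl Cfsg.Agent.Lib.TC.Data.ONS3.hnW Cfsg.Agent.Lib.TC.Data.ONS3.hnrel Cfsg.Agent.Lib.TC.Data.ONS3.hlett Cfsg.Agent.Lib.TC.Data.ONS3.hlet2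
    (fun w hw => (Cfsg.Agent.Lib.TC.Data.ONS3.hrelW w hw).imp id (fun h => S.restrict_rel A hA (map_getD_mem (by decide +kernel) (Cfsg.Agent.Lib.TC.Data.ONS3.hlet2 w (List.mem_of_mem_take hw))) (G.ON.of_mem_relWords h))) Cfsg.Agent.Lib.TC.Data.ONS3.hsubW
    (fun k hk => guard_zero 256 _ k hk) Cfsg.Agent.Lib.TC.Data.ONS3.doneK 4 Cfsg.Agent.Lib.TC.Data.ONS3.aN Cfsg.Agent.Lib.TC.Data.ONS3.tT (by decide) Cfsg.Agent.Lib.TC.Data.ONS3.hnm0 Cfsg.Agent.Lib.TC.Data.ONS3.doneP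

theorem b2 : 0 < Nat.card (S'.letL [0,1,2]) ∧ Nat.card (S'.letL [0,1,2]) ≤ 1 * 2 * 3 * 4 :=
  card_le_step (S'.letL_mono (by decide +kernel)) idx2 b1

theorem idx3 : (S'.letL [0,1,2]).relIndex (S'.letL [0,1,2,5]) ≠ 0 ∧ (S'.letL [0,1,2]).relIndex (S'.letL [0,1,2,5]) ≤ 2 :=
  S'.relIndex_letL [0,1,2,5] [0,1,2] Cfsg.Agent.Lib.TC.Data.ONS2.invp Cfsg.Agent.Lib.TC.Data.ONS2.hsig Cfsg.Agent.Lib.TC.Data.ONS2.cert Cfsg.Agent.Lib.TC.Data.ONS2.words rfl rfl rfl Cfsg.Agent.Lib.TC.Data.ONS2.hnW Cfsg.Agent.Lib.TC.Data.ONS2.hnrel Cfsg.Agent.Lib.TC.Data.ONS2.hlett Cfsg.Agent.Lib.TC.Data.ONS2.hlet2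
    (fun w hw => (Cfsg.Agent.Lib.TC.Data.ONS2.hrelW w hw).imp id (fun h => S.restrict_rel A hA (map_getD_mem (by decide +kernel) (Cfsg.Agent.Lib.TC.Data.ONS2.hlet2 w (List.mem_of_mem_take hw))) (G.ON.of_mem_relWords h))) Cfsg.Agent.Lib.TC.Data.ONS2.hsubW
    (fun k hk => guard_zero 256 _ k hk) Cfsg.Agent.Lib.TC.Data.ONS2.doneK 2 Cfsg.Agent.Lib.TC.Data.ONS2.aN Cfsg.Agent.Lib.TC.Data.ONS2.tT (by decide) Cfsg.Agent.Lib.TC.Data.ONS2.hnm0 Cfsg.Agent.Lib.TC.Data.ONS2.doneP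

theorem b3 : 0 < Nat.card (S'.letL [0,1,2,5]) ∧ Nat.card (S'.letL [0,1,2,5]) ≤ 1 * 2 * 3 * 4 * 2 :=
  card_le_step (S'.letL_mono (by decide +kernel)) idx3 b2

theorem idx4 : (S'.letL [0,1,2,5]).relIndex (S'.letL [0,1,2,3,5]) ≠ 0 ∧ (S'.letL [0,1,2,5]).relIndex (S'.letL [0,1,2,3,5]) ≤ 14 :=
  S'.relIndex_letL [0,1,2,3,5] [0,1,2,5] Cfsg.Agent.Lib.TC.Data.ONS1.invp Cfsg.Agent.Lib.TC.Data.ONS1.hsig Cfsg.Agent.Lib.TC.Data.ONS1.cert Cfsg.Agent.Lib.TC.Data.ONS1.words rfl rfl rfl Cfsg.Agent.Lib.TC.Data.ONS1.hnW Cfsg.Agent.Lib.TC.Data.ONS1.hnrel Cfsg.Agent.Lib.TC.Data.ONS1.hlett Cfsg.Agent.Lib.TC.Data.ONS1.hlet2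
    (fun w hw => (Cfsg.Agent.Lib.TC.Data.ONS1.hrelW w hw).imp id (fun h => S.restrict_rel A hA (map_getD_mem (by decide +kernel) (Cfsg.Agent.Lib.TC.Data.ONS1.hlet2 w (List.mem_of_mem_take hw))) (G.ON.of_mem_relWords h))) Cfsg.Agent.Lib.TC.Data.ONS1.hsubW
    (fun k hk => guard_zero 256 _ k hk) Cfsg.Agent.Lib.TC.Data.ONS1.doneK 14 Cfsg.Agent.Lib.TC.Data.ONS1.aN Cfsg.Agent.Lib.TC.Data.ONS1.tT (by decide) Cfsg.Agent.Lib.TC.Data.ONS1.hnm0 Cfsg.Agent.Lib.TC.Data.ONS1.doneP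

theorem b4 : 0 < Nat.card (S'.letL [0,1,2,3,5]) ∧ Nat.card (S'.letL [0,1,2,3,5]) ≤ 1 * 2 * 3 * 4 * 2 * 14 :=
  card_le_step (S'.letL_mono (by decide +kernel)) idx4 b3

theorem idx5 : (S'.letL [0,1,2,3,5]).relIndex (S'.letL [0,1,2,3,4,5]) ≠ 0 ∧ (S'.letL [0,1,2,3,5]).relIndex (S'.letL [0,1,2,3,4,5]) ≤ 5586 :=
  S'.relIndex_letL [0,1,2,3,4,5] [0,1,2,3,5] Cfsg.Agent.Lib.TC.Data.ONS0.invp Cfsg.Agent.Lib.TC.Data.ONS0.hsig Cfsg.Agent.Lib.TC.Data.ONS0.cert Cfsg.Agent.Lib.TC.Data.ONS0.words rfl rfl rfl Cfsg.Agent.Lib.TC.Data.ONS0.hnW Cfsg.Agent.Lib.TC.Data.ONS0.hnrel Cfsg.Agent.Lib.TC.Data.ONS0.hlett Cfsg.Agent.Lib.TC.Data.ONS0.hlet2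
    (fun w hw => (Cfsg.Agent.Lib.TC.Data.ONS0.hrelW w hw).imp id (fun h => S.restrict_rel A hA (map_getD_mem (by decide +kernel) (Cfsg.Agent.Lib.TC.Data.ONS0.hlet2 w (List.mem_of_mem_take hw))) (G.ON.of_mem_relWords h))) Cfsg.Agent.Lib.TC.Data.ONS0.hsubW
    (fun k hk => guard_zero 39168 _ k hk) Cfsg.Agent.Lib.TC.Data.ONS0.doneK 5586 Cfsg.Agent.Lib.TC.Data.ONS0.aN Cfsg.Agent.Lib.TC.Data.ONS0.tT (by decide) Cfsg.Agent.Lib.TC.Data.ONS0.hnm0 Cfsg.Agent.Lib.TC.Data.ONS0.doneP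

theorem b5 : 0 < Nat.card (S'.letL [0,1,2,3,4,5]) ∧ Nat.card (S'.letL [0,1,2,3,4,5]) ≤ 1 * 2 * 3 * 4 * 2 * 14 * 5586 :=
  card_le_step (S'.letL_mono (by decide +kernel)) idx5 b4

theorem card_top : 0 < Nat.card (PresentedGroup S'.rels) ∧ Nat.card (PresentedGroup S'.rels) ≤ 1 * 2 * 3 * 4 * 2 * 14 * 5586 := by
  have h := b5
  rw [S.restrict_letL_top A, Subgroup.card_top] at h
  exact h

end Cfsg.Agent.Lib.TC.Data.ONAbs
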