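import Cfsg.Agent.Lib.TC.Data.HeS0.Main
import Cfsg.Agent.Lib.TC.Data.HeS1.Main
import Cfsg.Agent.Lib.TC.Data.HeS2.Main
import Cfsg.Agent.Lib.TC.Data.HeS3.Main
import Cfsg.Agent.Lib.TC.Data.HeS4.Main
import Cfsg.Agent.Lib.TC.Data.HeS5.Main
import Cfsg.Agent.Lib.TC.Data.HeS6.Main
import Cfsg.Agent.Lib.TC.Data.HeColl
import Cfsg.Agent.Lib.TC.Data.HeLev

set_option autoImplicit false

namespace Cfsg.Agent.Lib.TC.Data.HeMain

open Cfsg.Agent.Lib.TC

noncomputable abbrev S : Sys Cfsg.Spor.He.Gen := G.He.sys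

noncomputable abbrev C := Cfsg.Agent.Lib.TC.Data.He2058.checked

theorem b0 : 0 < Nat.card (S.letL [6]) ∧ Nat.card (S.letL [6]) ≤ 1 * 2 :=
  card_le_step (S.letL_mono (by simp)) Cfsg.Agent.Lib.TC.Data.HeS6.idx (by rw [S.letL_nil]; exact card_bot_bound)

theorem b1 : 0 < Nat.card (S.letL [3,6]) ∧ Nat.card (S.letL [3,6]) ≤ 1 * 2 * 3 :=
  card_le_step (S.letL_mono (by decide +kernel)) Cfsg.Agent.Lib.TC.Data.HeS5.idx b0

theorem b2 : 0 < Nat.card (S.letL [3,4,6]) ∧ Nat.card (S.letL [3,4,6]) ≤ 1 * 2 * 3 * 4 :=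
  card_le_step (S.letL_mono (by decide +kernel)) Cfsg.Agent.Lib.TC.Data.HeS4.idx b1

theorem b3 : 0 < Nat.card (S.letL [3,4,5,6]) ∧ Nat.card (S.letL [3,4,5,6]) ≤ 1 * 2 * 3 * 4 * 7 :=
  card_le_step (S.letL_mono (by decide +kernel)) Cfsg.Agent.Lib.TC.Data.HeS3.idx b2

theorem b4 : 0 < Nat.card (S.letL [0,3,4,5,6]) ∧ Nat.card (S.letL [0,3,4,5,6]) ≤ 1 * 2 * 3 * 4 * 7 * 2 :=
  card_le_step (S.letL_mono (by decide +kernel)) Cfsg.Agent.Lib.TC.Data.HeS2.idx b3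

theorem b5 : 0 < Nat.card (S.letL [0,2,3,4,5,6]) ∧ Nat.card (S.letL [0,2,3,4,5,6]) ≤ 1 * 2 * 3 * 4 * 7 * 2 * 240 :=
  card_le_step (S.letL_mono (by decide +kernel)) Cfsg.Agent.Lib.TC.Data.HeS1.idx b4

theorem b6 : 0 < Nat.card (S.letL [0,1,2,3,4,5,6]) ∧ Nat.card (S.letL [0,1,2,3,4,5,6]) ≤ 1 * 2 * 3 * 4 * 7 * 2 * 240 * 49980 :=
  card_le_step (S.letL_mono (by decide +kernel)) Cfsg.Agent.Lib.TC.Data.HeS0.idx b5

theorem top : 0 < Nat.card (PresentedGroup S.rels) ∧ Nat.card (PresentedGroup S.rels) ≤ 1 * 2 * 3 * 4 * 7 * 2 * 240 * 49980 := by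
  have h := b6
  rw [S.letL_top (by intro x; cases x <;> decide +kernel), Subgroup.card_top] at h
  exact h

theorem faith : Function.Injective C.tableData.φ ∧ Nat.card (PresentedGroup S.rels) = 1958400 * C.n :=
  C.faithful top.1 (top.2.trans (by decide +kernel)) Cfsg.Agent.Lib.TC.Data.HeLev.SW Cfsg.Agent.Lib.TC.Data.HeLev.hlet
    (by decide +kernel) Cfsg.Agent.Lib.TC.Data.HeLev.L0

def xw : List ℕ := Cfsg.Agent.Lib.TC.Data.HeColl.xw

theorem hord : allFrom (fun i => Nat.beq (iterN (walk C.T xw) 7 i) i) 0 2058 = true := by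
  decide +kernel

theorem hx : (evalWord S.v xw) ^ 7 ^ 1 = 1 := by
  rw [pow_one]
  refine C.tableData.pow_eq_one faith.1 (by decide +kernel) 7 ?_
  intro i hi
  have h := allFrom_spec _ 0 2058 hord i hi
  rw [Nat.zero_add] at h
  rw [← iterN_eq]
  exact Nat.eq_of_beq_eq_true h

theorem main : IsSimpleGroup (PresentedGroup S.rels) ∧ Nat.card (PresentedGroup S.rels) = 4030387200 := by
  have hcard : Nat.card (PresentedGroup S.rels) = 4030387200 := faith.2.trans (by decide +kernel)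
  have : Finite (PresentedGroup S.rels) := Nat.finite_of_card_ne_zero (by omega)
  refine ⟨?_, hcard⟩
  refine C.isSimple faith.1 hcard (by decide +kernel) (by decide +kernel) (by decide +kernel) (by decide +kernel)
    (p := 7) (a := 3) (k := 1) (by norm_num) (by decide +kernel) (by decide +kernel) _ hx ?_
  intro N hN hxN
  have h := Cfsg.Agent.Lib.TC.Data.HeColl.coll N hxN
  exact Subgroup.index_eq_one.1 (by omega)

end Cfsg.Agent.Lib.TC.Data.HeMain
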